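import Cfsg.Agent.Lib.Helper60.Ru.DataC

/-! Checks for the coset table of `L` in `G` (generated). -/

set_option autoImplicit false

namespace Cfsg.Agent.Lib.Helper60.Ru

open Cfsg.Agent.Lib.Helper60.Cert

theorem C0ok_step_0 : allBelow (fun j => chkCAll model C0D (Nat.add 0 j)) 600 = true := by decide +kernel
theorem C0ok_step_1 : allBelow (fun j => chkCAll model C0D (Nat.add 600 j)) 600 = true := by decide +kernel
theorem C0ok_step_2 : allBelow (fun j => chkCAll model C0D (Nat.add 1200 j)) 600 = true := by decide +kernel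
theorem C0ok_step_3 : allBelow (fun j => chkCAll model C0D (Nat.add 1800 j)) 600 = true := by decide +kernel
theorem C0ok_step_4 : allBelow (fun j => chkCAll model C0D (Nat.add 2400 j)) 600 = true := by decide +kernel
theorem C0ok_step_5 : allBelow (fun j => chkCAll model C0D (Nat.add 3000 j)) 600 = true := by decide +kernel
theorem C0ok_step_6 : allBelow (fun j => chkCAll model C0D (Nat.add 3600 j)) 460 = true := by decide +kernel
theorem C0ok_step : ∀ j < 4060, chkCAll model C0D j = true := by
  intro j hj
  rcases Nat.lt_or_ge j 600 with h0 | h0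
  · exact allBelow_off (chkCAll model C0D) 0 600 C0ok_step_0 j (Nat.zero_le j) h0
  rcases Nat.lt_or_ge j 1200 with h1 | h1
  · exact allBelow_off (chkCAll model C0D) 600 600 C0ok_step_1 j h0 h1
  rcases Nat.lt_or_ge j 1800 with h2 | h2
  · exact allBelow_off (chkCAll model C0D) 1200 600 C0ok_step_2 j h1 h2
  rcases Nat.lt_or_ge j 2400 with h3 | h3
  · exact allBelow_off (chkCAll model C0D) 1800 600 C0ok_step_3 j h2 h3
  rcases Nat.lt_or_ge j 3000 with h4 | h4
  · exact allBelow_off (chkCAll model C0D) 2400 600 C0ok_step_4 j h3 h4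
  rcases Nat.lt_or_ge j 3600 with h5 | h5
  · exact allBelow_off (chkCAll model C0D) 3000 600 C0ok_step_5 j h4 h5
  exact allBelow_off (chkCAll model C0D) 3600 460 C0ok_step_6 j h5 hj
theorem C0ok_par_0 : allBelow (fun j => chkCPar model C0D (Nat.add 0 j)) 4059 = true := by decide +kernel
theorem C0ok_par : ∀ j < 4059, chkCPar model C0D j = true := by
  intro j hj
  exact allBelow_off (chkCPar model C0D) 0 4059 C0ok_par_0 j (Nat.zero_le j) hj
theorem C0ok_b_0 : allBelow (fun j => chkB0 (Nat.add 0 j)) 4060 = true := by decide +kernel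
theorem C0ok_b : ∀ j < 4060, chkB0 j = true := by
  intro j hj
  exact allBelow_off (chkB0) 0 4060 C0ok_b_0 j (Nat.zero_le j) hj

theorem C0ok : COK model C0D where
  c0 := by decide +kernel
  npos := by decide
  step := C0ok_step
  par := C0ok_par

end Cfsg.Agent.Lib.Helper60.Ru
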