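import Cfsg.Agent.Lib.Helper60.Ru.DataC

/-! Checks for the coset tables of `K` in `L` and in its subgroup of index two (generated). -/

set_option autoImplicit false

namespace Cfsg.Agent.Lib.Helper60.Ru

open Cfsg.Agent.Lib.Helper60.Cert

theorem C1ok_step_0 : allBelow (fun j => chkCAll model C1D (Nat.add 0 j)) 800 = true := by decide +kernel
theorem C1ok_step_1 : allBelow (fun j => chkCAll model C1D (Nat.add 800 j)) 800 = true := by decide +kernel
theorem C1ok_step_2 : allBelow (fun j => chkCAll model C1D (Nat.add 1600 j)) 704 = true := by decide +kernel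
theorem C1ok_step : ∀ j < 2304, chkCAll model C1D j = true := by
  intro j hj
  rcases Nat.lt_or_ge j 800 with h0 | h0
  · exact allBelow_off (chkCAll model C1D) 0 800 C1ok_step_0 j (Nat.zero_le j) h0
  rcases Nat.lt_or_ge j 1600 with h1 | h1
  · exact allBelow_off (chkCAll model C1D) 800 800 C1ok_step_1 j h0 h1
  exact allBelow_off (chkCAll model C1D) 1600 704 C1ok_step_2 j h1 hj
theorem C1ok_par_0 : allBelow (fun j => chkCPar model C1D (Nat.add 0 j)) 2303 = true := by decide +kernel
theorem C1ok_par : ∀ j < 2303, chkCPar model C1D j = true := by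
  intro j hj
  exact allBelow_off (chkCPar model C1D) 0 2303 C1ok_par_0 j (Nat.zero_le j) hj
theorem C1ok_b_0 : allBelow (fun j => chkB1 (Nat.add 0 j)) 2304 = true := by decide +kernel
theorem C1ok_b : ∀ j < 2304, chkB1 j = true := by
  intro j hj
  exact allBelow_off (chkB1) 0 2304 C1ok_b_0 j (Nat.zero_le j) hj
theorem C1pok_step_0 : allBelow (fun j => chkCAll model C1pD (Nat.add 0 j)) 1200 = true := by decide +kernel
theorem C1pok_step_1 : allBelow (fun j => chkCAll model C1pD (Nat.add 1200 j)) 1104 = true := by decide +kernel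
theorem C1pok_step : ∀ j < 2304, chkCAll model C1pD j = true := by
  intro j hj
  rcases Nat.lt_or_ge j 1200 with h0 | h0
  · exact allBelow_off (chkCAll model C1pD) 0 1200 C1pok_step_0 j (Nat.zero_le j) h0
  exact allBelow_off (chkCAll model C1pD) 1200 1104 C1pok_step_1 j h0 hj
theorem C1pok_par_0 : allBelow (fun j => chkCPar model C1pD (Nat.add 0 j)) 2303 = true := by decide +kernel
theorem C1pok_par : ∀ j < 2303, chkCPar model C1pD j = true := by
  intro j hj
  exact allBelow_off (chkCPar model C1pD) 0 2303 C1pok_par_0 j (Nat.zero_le j) hj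
theorem C1pok_b_0 : allBelow (fun j => chkB1p (Nat.add 0 j)) 2304 = true := by decide +kernel
theorem C1pok_b : ∀ j < 2304, chkB1p j = true := by
  intro j hj
  exact allBelow_off (chkB1p) 0 2304 C1pok_b_0 j (Nat.zero_le j) hj

theorem C1ok : COK model C1D where
  c0 := by decide +kernel
  npos := by decide
  step := C1ok_step
  par := C1ok_par

theorem C1pok : COK model C1pD where
  c0 := by decide +kernel
  npos := by decide
  step := C1pok_step
  par := C1pok_par

theorem ord_ok : allBelow chkOrd 3 = true := by decide +kernel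
theorem uw_ok : chkWord model ggen 3 uw (lgen 2) = true := by decide +kernel
theorem k1w_ok : chkWord model lgen 2 k1w (kgen 0) = true := by decide +kernel
theorem k2w_ok : chkWord model lgen 2 k2w (kgen 1) = true := by decide +kernel
theorem lgen0 : lgen 0 = ggen 0 := by decide +kernel
theorem lgen1 : lgen 1 = ggen 1 := by decide +kernel
theorem kgen2 : kgen 2 = lgen 2 := by decide +kernel

end Cfsg.Agent.Lib.Helper60.Ru
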