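import Cfsg.Agent.Lib.Helper60.Ru.DataK

/-! Checks for the table of `K` (generated). -/

set_option autoImplicit false

namespace Cfsg.Agent.Lib.Helper60.Ru

open Cfsg.Agent.Lib.Helper60.Cert

theorem Kok_nx_0 : allBelow (fun j => chkNxAll model KL (Nat.add 0 j)) 2000 = true := by decide +kernel
theorem Kok_nx_1 : allBelow (fun j => chkNxAll model KL (Nat.add 2000 j)) 2000 = true := by decide +kernel
theorem Kok_nx_2 : allBelow (fun j => chkNxAll model KL (Nat.add 4000 j)) 2000 = true := by decide +kernel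
theorem Kok_nx_3 : allBelow (fun j => chkNxAll model KL (Nat.add 6000 j)) 2000 = true := by decide +kernel
theorem Kok_nx_4 : allBelow (fun j => chkNxAll model KL (Nat.add 8000 j)) 2000 = true := by decide +kernel
theorem Kok_nx_5 : allBelow (fun j => chkNxAll model KL (Nat.add 10000 j)) 2000 = true := by decide +kernel
theorem Kok_nx_6 : allBelow (fun j => chkNxAll model KL (Nat.add 12000 j)) 2000 = true := by decide +kernel
theorem Kok_nx_7 : allBelow (fun j => chkNxAll model KL (Nat.add 14000 j)) 1600 = true := by decide +kernel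
theorem Kok_nx : ∀ j < 15600, chkNxAll model KL j = true := by
  intro j hj
  rcases Nat.lt_or_ge j 2000 with h0 | h0
  · exact allBelow_off (chkNxAll model KL) 0 2000 Kok_nx_0 j (Nat.zero_le j) h0
  rcases Nat.lt_or_ge j 4000 with h1 | h1
  · exact allBelow_off (chkNxAll model KL) 2000 2000 Kok_nx_1 j h0 h1
  rcases Nat.lt_or_ge j 6000 with h2 | h2
  · exact allBelow_off (chkNxAll model KL) 4000 2000 Kok_nx_2 j h1 h2
  rcases Nat.lt_or_ge j 8000 with h3 | h3
  · exact allBelow_off (chkNxAll model KL) 6000 2000 Kok_nx_3 j h2 h3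
  rcases Nat.lt_or_ge j 10000 with h4 | h4
  · exact allBelow_off (chkNxAll model KL) 8000 2000 Kok_nx_4 j h3 h4
  rcases Nat.lt_or_ge j 12000 with h5 | h5
  · exact allBelow_off (chkNxAll model KL) 10000 2000 Kok_nx_5 j h4 h5
  rcases Nat.lt_or_ge j 14000 with h6 | h6
  · exact allBelow_off (chkNxAll model KL) 12000 2000 Kok_nx_6 j h5 h6
  exact allBelow_off (chkNxAll model KL) 14000 1600 Kok_nx_7 j h6 hj
theorem Kok_par_0 : allBelow (fun j => chkPar KL (Nat.add 0 j)) 15599 = true := by decide +kernel
theorem Kok_par : ∀ j < 15599, chkPar KL j = true := by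
  intro j hj
  exact allBelow_off (chkPar KL) 0 15599 Kok_par_0 j (Nat.zero_le j) hj
theorem Kok_pos_0 : allBelow (fun j => KchkPos (Nat.add 0 j)) 15600 = true := by decide +kernel
theorem Kok_pos : ∀ j < 15600, KchkPos j = true := by
  intro j hj
  exact allBelow_off (KchkPos) 0 15600 Kok_pos_0 j (Nat.zero_le j) hj
theorem Kok_sort_0 : allBelow (fun j => KchkSort (Nat.add 0 j)) 8000 = true := by decide +kernel
theorem Kok_sort_1 : allBelow (fun j => KchkSort (Nat.add 8000 j)) 7599 = true := by decide +kernel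
theorem Kok_sort : ∀ j < 15599, KchkSort j = true := by
  intro j hj
  rcases Nat.lt_or_ge j 8000 with h0 | h0
  · exact allBelow_off (KchkSort) 0 8000 Kok_sort_0 j (Nat.zero_le j) h0
  exact allBelow_off (KchkSort) 8000 7599 Kok_sort_1 j h0 hj
theorem Kok_inj : ∀ i < KL.N, ∀ j < KL.N, model.toM (KL.T i) = model.toM (KL.T j) → i = j := by
  apply inj_of_sorted Kord Kpos
  · intro j hj
    have h := Kok_pos j hj
    simp only [KchkPos, Bool.and_eq_true, Nat.blt_eq] at h
    exact ⟨h.1, Nat.eq_of_beq_eq_true h.2⟩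
  · intro k hk
    have h := Kok_sort k (by change k + 1 < 15600 at hk; omega)
    simp only [KchkSort, Nat.blt_eq] at h
    exact h

theorem KLok : LOK model KL where
  t0 := by decide +kernel
  npos := by decide
  nx := Kok_nx
  par := Kok_par
  inj := Kok_inj


end Cfsg.Agent.Lib.Helper60.Ru
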