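import Cfsg.Agent.Lib.Helper60.Ru.ChkK

/-! Checks for the table of the subgroup of index two in `K` (generated). -/

set_option autoImplicit false

namespace Cfsg.Agent.Lib.Helper60.Ru

open Cfsg.Agent.Lib.Helper60.Cert

theorem Kpok_nx_0 : allBelow (fun j => chkNxAll model KpL (Nat.add 0 j)) 3000 = true := by decide +kernel
theorem Kpok_nx_1 : allBelow (fun j => chkNxAll model KpL (Nat.add 3000 j)) 3000 = true := by decide +kernel
theorem Kpok_nx_2 : allBelow (fun j => chkNxAll model KpL (Nat.add 6000 j)) 1800 = true := by decide +kernel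
theorem Kpok_nx : ∀ j < 7800, chkNxAll model KpL j = true := by
  intro j hj
  rcases Nat.lt_or_ge j 3000 with h0 | h0
  · exact allBelow_off (chkNxAll model KpL) 0 3000 Kpok_nx_0 j (Nat.zero_le j) h0
  rcases Nat.lt_or_ge j 6000 with h1 | h1
  · exact allBelow_off (chkNxAll model KpL) 3000 3000 Kpok_nx_1 j h0 h1
  exact allBelow_off (chkNxAll model KpL) 6000 1800 Kpok_nx_2 j h1 hj
theorem Kpok_par_0 : allBelow (fun j => chkPar KpL (Nat.add 0 j)) 7799 = true := by decide +kernel
theorem Kpok_par : ∀ j < 7799, chkPar KpL j = true := by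
  intro j hj
  exact allBelow_off (chkPar KpL) 0 7799 Kpok_par_0 j (Nat.zero_le j) hj

theorem KpLok : LOK model KpL where
  t0 := by decide +kernel
  npos := by decide
  nx := Kpok_nx
  par := Kpok_par
  inj := fun i hi j hj h => KLok.inj i (lt_trans hi (by decide)) j (lt_trans hj (by decide)) h

end Cfsg.Agent.Lib.Helper60.Ru
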