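import Cfsg.Agent.Lib.Helper60.Ru.DataS2G

/-! Checks for the Sylow data `s2G` (generated). -/

set_option autoImplicit false

namespace Cfsg.Agent.Lib.Helper60.Ru

open Cfsg.Agent.Lib.Helper60.Cert

theorem s2Gok_nx_0 : allBelow (fun j => chkNxAll model s2GL (Nat.add 0 j)) 2000 = true := by decide +kernel
theorem s2Gok_nx_1 : allBelow (fun j => chkNxAll model s2GL (Nat.add 2000 j)) 2000 = true := by decide +kernel
theorem s2Gok_nx_2 : allBelow (fun j => chkNxAll model s2GL (Nat.add 4000 j)) 2000 = true := by decide +kernel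
theorem s2Gok_nx_3 : allBelow (fun j => chkNxAll model s2GL (Nat.add 6000 j)) 2000 = true := by decide +kernel
theorem s2Gok_nx_4 : allBelow (fun j => chkNxAll model s2GL (Nat.add 8000 j)) 2000 = true := by decide +kernel
theorem s2Gok_nx_5 : allBelow (fun j => chkNxAll model s2GL (Nat.add 10000 j)) 2000 = true := by decide +kernel
theorem s2Gok_nx_6 : allBelow (fun j => chkNxAll model s2GL (Nat.add 12000 j)) 2000 = true := by decide +kernel
theorem s2Gok_nx_7 : allBelow (fun j => chkNxAll model s2GL (Nat.add 14000 j)) 2000 = true := by decide +kernel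
theorem s2Gok_nx_8 : allBelow (fun j => chkNxAll model s2GL (Nat.add 16000 j)) 384 = true := by decide +kernel
theorem s2Gok_nx : ∀ j < 16384, chkNxAll model s2GL j = true := by
  intro j hj
  rcases Nat.lt_or_ge j 2000 with h0 | h0
  · exact allBelow_off (chkNxAll model s2GL) 0 2000 s2Gok_nx_0 j (Nat.zero_le j) h0
  rcases Nat.lt_or_ge j 4000 with h1 | h1
  · exact allBelow_off (chkNxAll model s2GL) 2000 2000 s2Gok_nx_1 j h0 h1
  rcases Nat.lt_or_ge j 6000 with h2 | h2
  · exact allBelow_off (chkNxAll model s2GL) 4000 2000 s2Gok_nx_2 j h1 h2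
  rcases Nat.lt_or_ge j 8000 with h3 | h3
  · exact allBelow_off (chkNxAll model s2GL) 6000 2000 s2Gok_nx_3 j h2 h3
  rcases Nat.lt_or_ge j 10000 with h4 | h4
  · exact allBelow_off (chkNxAll model s2GL) 8000 2000 s2Gok_nx_4 j h3 h4
  rcases Nat.lt_or_ge j 12000 with h5 | h5
  · exact allBelow_off (chkNxAll model s2GL) 10000 2000 s2Gok_nx_5 j h4 h5
  rcases Nat.lt_or_ge j 14000 with h6 | h6
  · exact allBelow_off (chkNxAll model s2GL) 12000 2000 s2Gok_nx_6 j h5 h6
  rcases Nat.lt_or_ge j 16000 with h7 | h7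
  · exact allBelow_off (chkNxAll model s2GL) 14000 2000 s2Gok_nx_7 j h6 h7
  exact allBelow_off (chkNxAll model s2GL) 16000 384 s2Gok_nx_8 j h7 hj
theorem s2Gok_par_0 : allBelow (fun j => chkPar s2GL (Nat.add 0 j)) 16000 = true := by decide +kernel
theorem s2Gok_par_1 : allBelow (fun j => chkPar s2GL (Nat.add 16000 j)) 383 = true := by decide +kernel
theorem s2Gok_par : ∀ j < 16383, chkPar s2GL j = true := by
  intro j hj
  rcases Nat.lt_or_ge j 16000 with h0 | h0
  · exact allBelow_off (chkPar s2GL) 0 16000 s2Gok_par_0 j (Nat.zero_le j) h0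
  exact allBelow_off (chkPar s2GL) 16000 383 s2Gok_par_1 j h0 hj
theorem s2Gok_pos_0 : allBelow (fun j => s2GchkPos (Nat.add 0 j)) 16000 = true := by decide +kernel
theorem s2Gok_pos_1 : allBelow (fun j => s2GchkPos (Nat.add 16000 j)) 384 = true := by decide +kernel
theorem s2Gok_pos : ∀ j < 16384, s2GchkPos j = true := by
  intro j hj
  rcases Nat.lt_or_ge j 16000 with h0 | h0
  · exact allBelow_off (s2GchkPos) 0 16000 s2Gok_pos_0 j (Nat.zero_le j) h0
  exact allBelow_off (s2GchkPos) 16000 384 s2Gok_pos_1 j h0 hj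
theorem s2Gok_sort_0 : allBelow (fun j => s2GchkSort (Nat.add 0 j)) 8000 = true := by decide +kernel
theorem s2Gok_sort_1 : allBelow (fun j => s2GchkSort (Nat.add 8000 j)) 8000 = true := by decide +kernel
theorem s2Gok_sort_2 : allBelow (fun j => s2GchkSort (Nat.add 16000 j)) 383 = true := by decide +kernel
theorem s2Gok_sort : ∀ j < 16383, s2GchkSort j = true := by
  intro j hj
  rcases Nat.lt_or_ge j 8000 with h0 | h0
  · exact allBelow_off (s2GchkSort) 0 8000 s2Gok_sort_0 j (Nat.zero_le j) h0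
  rcases Nat.lt_or_ge j 16000 with h1 | h1
  · exact allBelow_off (s2GchkSort) 8000 8000 s2Gok_sort_1 j h0 h1
  exact allBelow_off (s2GchkSort) 16000 383 s2Gok_sort_2 j h1 hj
theorem s2Gok_inj : ∀ i < s2GL.N, ∀ j < s2GL.N, model.toM (s2GL.T i) = model.toM (s2GL.T j) → i = j := by
  apply inj_of_sorted s2Gord s2Gpos
  · intro j hj
    have h := s2Gok_pos j hj
    simp only [s2GchkPos, Bool.and_eq_true, Nat.blt_eq] at h
    exact ⟨h.1, Nat.eq_of_beq_eq_true h.2⟩
  · intro k hk
    have h := s2Gok_sort k (by change k + 1 < 16384 at hk; omega)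
    simp only [s2GchkSort, Nat.blt_eq] at h
    exact h

theorem s2GLok : LOK model s2GL where
  t0 := by decide +kernel
  npos := by decide
  nx := s2Gok_nx
  par := s2Gok_par
  inj := s2Gok_inj

theorem s2Gok_w_0 : allBelow (fun j => chkW model s2GD (Nat.add 0 j)) 1 = true := by decide +kernel
theorem s2Gok_w : ∀ j < 1, chkW model s2GD j = true := by
  intro j hj
  exact allBelow_off (chkW model s2GD) 0 1 s2Gok_w_0 j (Nat.zero_le j) hj
theorem s2Gok_fl_0 : allBelow (fun j => chkFl model s2GD (Nat.add 0 j)) 2000 = true := by decide +kernel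
theorem s2Gok_fl_1 : allBelow (fun j => chkFl model s2GD (Nat.add 2000 j)) 2000 = true := by decide +kernel
theorem s2Gok_fl_2 : allBelow (fun j => chkFl model s2GD (Nat.add 4000 j)) 2000 = true := by decide +kernel
theorem s2Gok_fl_3 : allBelow (fun j => chkFl model s2GD (Nat.add 6000 j)) 2000 = true := by decide +kernel
theorem s2Gok_fl_4 : allBelow (fun j => chkFl model s2GD (Nat.add 8000 j)) 2000 = true := by decide +kernel
theorem s2Gok_fl_5 : allBelow (fun j => chkFl model s2GD (Nat.add 10000 j)) 2000 = true := by decide +kernel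
theorem s2Gok_fl_6 : allBelow (fun j => chkFl model s2GD (Nat.add 12000 j)) 2000 = true := by decide +kernel
theorem s2Gok_fl_7 : allBelow (fun j => chkFl model s2GD (Nat.add 14000 j)) 2000 = true := by decide +kernel
theorem s2Gok_fl_8 : allBelow (fun j => chkFl model s2GD (Nat.add 16000 j)) 384 = true := by decide +kernel
theorem s2Gok_fl : ∀ j < 16384, chkFl model s2GD j = true := by
  intro j hj
  rcases Nat.lt_or_ge j 2000 with h0 | h0
  · exact allBelow_off (chkFl model s2GD) 0 2000 s2Gok_fl_0 j (Nat.zero_le j) h0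
  rcases Nat.lt_or_ge j 4000 with h1 | h1
  · exact allBelow_off (chkFl model s2GD) 2000 2000 s2Gok_fl_1 j h0 h1
  rcases Nat.lt_or_ge j 6000 with h2 | h2
  · exact allBelow_off (chkFl model s2GD) 4000 2000 s2Gok_fl_2 j h1 h2
  rcases Nat.lt_or_ge j 8000 with h3 | h3
  · exact allBelow_off (chkFl model s2GD) 6000 2000 s2Gok_fl_3 j h2 h3
  rcases Nat.lt_or_ge j 10000 with h4 | h4
  · exact allBelow_off (chkFl model s2GD) 8000 2000 s2Gok_fl_4 j h3 h4
  rcases Nat.lt_or_ge j 12000 with h5 | h5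
  · exact allBelow_off (chkFl model s2GD) 10000 2000 s2Gok_fl_5 j h4 h5
  rcases Nat.lt_or_ge j 14000 with h6 | h6
  · exact allBelow_off (chkFl model s2GD) 12000 2000 s2Gok_fl_6 j h5 h6
  rcases Nat.lt_or_ge j 16000 with h7 | h7
  · exact allBelow_off (chkFl model s2GD) 14000 2000 s2Gok_fl_7 j h6 h7
  exact allBelow_off (chkFl model s2GD) 16000 384 s2Gok_fl_8 j h7 hj

theorem s2Gok : SOK model s2GD where
  l := s2GLok
  w := s2Gok_w
  fl := s2Gok_fl

theorem s2G_gc : allBelow (fun l => chkTri (s2Ggen l) (s2Ggi l) (s2Ggj l) (s2Ggk l)) 3 = true := by decide +kernel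
theorem s2G_wc : allBelow (fun l => chkTri (s2GW l) (s2Gwi l) (s2Gwj l) (s2Gwk l)) 1 = true := by decide +kernel

end Cfsg.Agent.Lib.Helper60.Ru
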