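import Cfsg.Agent.Lib.Helper60.Ru.DataS2T

/-! Checks for the Sylow data `s2T` (generated). -/

set_option autoImplicit false

namespace Cfsg.Agent.Lib.Helper60.Ru

open Cfsg.Agent.Lib.Helper60.Cert

theorem s2Tok_nx_0 : allBelow (fun j => chkNxAll model s2TL (Nat.add 0 j)) 2000 = true := by decide +kernel
theorem s2Tok_nx_1 : allBelow (fun j => chkNxAll model s2TL (Nat.add 2000 j)) 48 = true := by decide +kernel
theorem s2Tok_nx : ∀ j < 2048, chkNxAll model s2TL j = true := by
  intro j hj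
  rcases Nat.lt_or_ge j 2000 with h0 | h0
  · exact allBelow_off (chkNxAll model s2TL) 0 2000 s2Tok_nx_0 j (Nat.zero_le j) h0
  exact allBelow_off (chkNxAll model s2TL) 2000 48 s2Tok_nx_1 j h0 hj
theorem s2Tok_par_0 : allBelow (fun j => chkPar s2TL (Nat.add 0 j)) 2047 = true := by decide +kernel
theorem s2Tok_par : ∀ j < 2047, chkPar s2TL j = true := by
  intro j hj
  exact allBelow_off (chkPar s2TL) 0 2047 s2Tok_par_0 j (Nat.zero_le j) hj
theorem s2Tok_pos_0 : allBelow (fun j => s2TchkPos (Nat.add 0 j)) 2048 = true := by decide +kernel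
theorem s2Tok_pos : ∀ j < 2048, s2TchkPos j = true := by
  intro j hj
  exact allBelow_off (s2TchkPos) 0 2048 s2Tok_pos_0 j (Nat.zero_le j) hj
theorem s2Tok_sort_0 : allBelow (fun j => s2TchkSort (Nat.add 0 j)) 2047 = true := by decide +kernel
theorem s2Tok_sort : ∀ j < 2047, s2TchkSort j = true := by
  intro j hj
  exact allBelow_off (s2TchkSort) 0 2047 s2Tok_sort_0 j (Nat.zero_le j) hj
theorem s2Tok_inj : ∀ i < s2TL.N, ∀ j < s2TL.N, model.toM (s2TL.T i) = model.toM (s2TL.T j) → i = j := by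
  apply inj_of_sorted s2Tord s2Tpos
  · intro j hj
    have h := s2Tok_pos j hj
    simp only [s2TchkPos, Bool.and_eq_true, Nat.blt_eq] at h
    exact ⟨h.1, Nat.eq_of_beq_eq_true h.2⟩
  · intro k hk
    have h := s2Tok_sort k (by change k + 1 < 2048 at hk; omega)
    simp only [s2TchkSort, Nat.blt_eq] at h
    exact h

theorem s2TLok : LOK model s2TL where
  t0 := by decide +kernel
  npos := by decide
  nx := s2Tok_nx
  par := s2Tok_par
  inj := s2Tok_inj

theorem s2Tok_w_0 : allBelow (fun j => chkW3 model s2TD (Nat.add 0 j)) 2 = true := by decide +kernel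
theorem s2Tok_w : ∀ j < 2, chkW3 model s2TD j = true := by
  intro j hj
  exact allBelow_off (chkW3 model s2TD) 0 2 s2Tok_w_0 j (Nat.zero_le j) hj
theorem s2Tok_fl_0 : allBelow (fun j => chkFl3 model s2TD (Nat.add 0 j)) 2000 = true := by decide +kernel
theorem s2Tok_fl_1 : allBelow (fun j => chkFl3 model s2TD (Nat.add 2000 j)) 48 = true := by decide +kernel
theorem s2Tok_fl : ∀ j < 2048, chkFl3 model s2TD j = true := by
  intro j hj
  rcases Nat.lt_or_ge j 2000 with h0 | h0
  · exact allBelow_off (chkFl3 model s2TD) 0 2000 s2Tok_fl_0 j (Nat.zero_le j) h0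
  exact allBelow_off (chkFl3 model s2TD) 2000 48 s2Tok_fl_1 j h0 hj

theorem s2Tok : SOK3 model s2TD where
  l := s2TLok
  w := s2Tok_w
  fl := s2Tok_fl

theorem s2T_gc : allBelow (fun l => chkPair (s2Tgen l) (s2Tgj l) (s2Tgk l)) 2 = true := by decide +kernel
theorem s2T_wc : allBelow (fun l => chkPair (s2TW l) (s2Twj l) (s2Twk l)) 2 = true := by decide +kernel

end Cfsg.Agent.Lib.Helper60.Ru
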