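import Cfsg.Agent.Lib.Helper60.Cert.Syl

/-!
Packed 28 × 28 matrices over the field with two elements: one natural number per matrix
(bit `28 i + j` is the entry `(i, j)`), with a multiplication the kernel evaluates quickly,
as a model for the generic certificate layer.
-/

set_option autoImplicit false

namespace Cfsg.Agent.Lib.Helper60.Ru

abbrev Mat := Matrix (Fin 28) (Fin 28) (ZMod 2)

/-- a bit as an element of `ZMod 2` -/
def b2z (b : Bool) : ZMod 2 := if b then 1 else 0

theorem b2z_xor (a b : Bool) : b2z (a ^^ b) = b2z a + b2z b := by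
  cases a <;> cases b <;> decide

theorem b2z_and (a b : Bool) : b2z (a && b) = b2z a * b2z b := by
  cases a <;> cases b <;> decide

theorem b2z_inj {a b : Bool} (h : b2z a = b2z b) : a = b := by
  cases a <;> cases b
  · rfl
  · exact absurd h (by decide)
  · exact absurd h (by decide)
  · rfl

/-- the matrix coded by a natural number -/
def toMat (x : ℕ) : Mat := Matrix.of fun i j => b2z (x.testBit (28 * i.val + j.val))

def ML : ℕ := 0x1000000100000010000001000000100000010000001000000100000010000001000000100000010000001000000100000010000001000000100000010000001000000100000010000001000000100000010000001000000100000010000001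
def M28 : ℕ := 268435455

/-- the contribution of column `j` of `A` and row `j` of `B` -/
def term (A B j : ℕ) : ℕ :=
  Nat.mul (Nat.land (Nat.shiftRight A j) ML) (Nat.land (Nat.shiftRight B (Nat.mul 28 j)) M28)

/-- the packed product -/
def mulP (A B : ℕ) : ℕ :=
  Nat.xor (Nat.xor (Nat.xor (Nat.xor (Nat.xor (Nat.xor (Nat.xor (Nat.xor (Nat.xor (Nat.xor (Nat.xor (Nat.xor (Nat.xor (Nat.xor (Nat.xor (Nat.xor (Nat.xor (Nat.xor (Nat.xor (Nat.xor (Nat.xor (Nat.xor (Nat.xor (Nat.xor (Nat.xor (Nat.xor (Nat.xor (term A B 0) (term A B 1)) (term A B 2)) (term A B 3)) (term A B 4)) (term A B 5)) (term A B 6)) (term A B 7)) (term A B 8)) (term A B 9)) (term A B 10)) (term A B 11)) (term A B 12)) (term A B 13)) (term A B 14)) (term A B 15)) (term A B 16)) (term A B 17)) (term A B 18)) (term A B 19)) (term A B 20)) (term A B 21)) (term A B 22)) (term A B 23)) (term A B 24)) (term A B 25)) (term A B 26)) (term A B 27)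

theorem ML_sparse : ∀ n < 784, ML.testBit n = true → n % 28 = 0 := by decide +kernel
theorem ML_lt : ML < 2 ^ 784 := by decide +kernel
theorem ML_bit : ∀ i < 28, ML.testBit (28 * i) = true := by decide +kernel

theorem land_ML_sparse (a n : ℕ) (h : (a &&& ML).testBit n = true) : 28 ∣ n := by
  rw [Nat.testBit_and, Bool.and_eq_true] at h
  by_cases hn : n < 784
  · exact Nat.dvd_of_mod_eq_zero (ML_sparse n hn h.2)
  · have : ML.testBit n = false := by
      apply Nat.testBit_lt_two_pow
      exact lt_of_lt_of_le ML_lt (Nat.pow_le_pow_right (by norm_num) (by omega))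
    rw [this] at h
    exact absurd h.2 (by simp)

theorem sparse_mul (i : ℕ) : ∀ (c r t : ℕ), (∀ n, c.testBit n = true → 28 ∣ n) → r < 2 ^ 28 →
    t < 28 → (c * r).testBit (28 * i + t) = (c.testBit (28 * i) && r.testBit t) := by
  induction i with
  | zero =>
    intro c r t hc hr ht
    have h0 : c % 2 ^ 28 < 2 ^ 1 := by
      apply Nat.lt_pow_two_of_testBit
      intro i hi
      rw [Nat.testBit_mod_two_pow]
      by_cases h28 : i < 28
      · by_contra hne
        have : c.testBit i = true := by simpa [h28] using hne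
        have := hc i this
        omega
      · simp [h28]
    have hcr : c * r = 2 ^ 28 * (c / 2 ^ 28 * r) + c % 2 ^ 28 * r := by
      conv_lhs => rw [← Nat.div_add_mod c (2 ^ 28)]
      ring
    have hlt : c % 2 ^ 28 * r < 2 ^ 28 := by
      have : c % 2 ^ 28 ≤ 1 := by omega
      nlinarith
    rw [hcr, Nat.mul_zero, Nat.zero_add, Nat.testBit_two_pow_mul_add _ hlt, if_pos ht]
    have hc0 : c.testBit 0 = decide (c % 2 ^ 28 = 1) := by
      rw [Nat.testBit_zero]
      have : c % 2 ^ 28 % 2 = c % 2 := Nat.mod_mod_of_dvd c (by norm_num)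
      have h2 : c % 2 ^ 28 < 2 := h0
      congr 1
      apply propext
      constructor <;> intro h <;> omega
    rw [hc0]
    rcases Nat.lt_succ_iff_lt_or_eq.mp (show c % 2 ^ 28 < 1 + 1 from h0) with h1 | h1
    · have : c % 2 ^ 28 = 0 := by omega
      rw [this]; simp
    · rw [h1]; simp
  | succ i ih =>
    intro c r t hc hr ht
    have h0 : c % 2 ^ 28 < 2 ^ 1 := by
      apply Nat.lt_pow_two_of_testBit
      intro i hi
      rw [Nat.testBit_mod_two_pow]
      by_cases h28 : i < 28
      · by_contra hne
        have : c.testBit i = true := by simpa [h28] using hne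
        have := hc i this
        omega
      · simp [h28]
    have hcr : c * r = 2 ^ 28 * (c / 2 ^ 28 * r) + c % 2 ^ 28 * r := by
      conv_lhs => rw [← Nat.div_add_mod c (2 ^ 28)]
      ring
    have hlt : c % 2 ^ 28 * r < 2 ^ 28 := by
      have : c % 2 ^ 28 ≤ 1 := by omega
      nlinarith
    have hge : ¬ (28 * (i + 1) + t < 28) := by omega
    rw [hcr, Nat.testBit_two_pow_mul_add _ hlt, if_neg hge]
    have e1 : 28 * (i + 1) + t - 28 = 28 * i + t := by omega
    rw [e1, ih (c / 2 ^ 28) r t ?_ hr ht, Nat.testBit_div_two_pow]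
    · congr 2
    · intro n hn
      rw [Nat.testBit_div_two_pow] at hn
      have := hc _ hn
      omega

theorem M28_eq : M28 = 2 ^ 28 - 1 := by decide

theorem term_bit (A B i j t : ℕ) (hi : i < 28) (ht : t < 28) :
    (term A B j).testBit (28 * i + t) = (A.testBit (28 * i + j) && B.testBit (28 * j + t)) := by
  change (((A >>> j) &&& ML) * ((B >>> (28 * j)) &&& M28)).testBit (28 * i + t) = _
  rw [sparse_mul i _ _ t (land_ML_sparse _) ?_ ht]
  · rw [Nat.testBit_and, Nat.testBit_and, Nat.testBit_shiftRight, Nat.testBit_shiftRight,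
      ML_bit i hi, M28_eq, Nat.testBit_two_pow_sub_one]
    simp [ht, Nat.add_comm]
  · exact Nat.and_lt_two_pow _ (by decide)

theorem mulP_bit (A B i t : ℕ) :
    (mulP A B).testBit (28 * i + t) =
      ((((((((((((((((((((((((((((term A B 0).testBit (28 * i + t) ^^ (term A B 1).testBit (28 * i + t)) ^^ (term A B 2).testBit (28 * i + t)) ^^ (term A B 3).testBit (28 * i + t)) ^^ (term A B 4).testBit (28 * i + t)) ^^ (term A B 5).testBit (28 * i + t)) ^^ (term A B 6).testBit (28 * i + t)) ^^ (term A B 7).testBit (28 * i + t)) ^^ (term A B 8).testBit (28 * i + t)) ^^ (term A B 9).testBit (28 * i + t)) ^^ (term A B 10).testBit (28 * i + t)) ^^ (term A B 11).testBit (28 * i + t)) ^^ (term A B 12).testBit (28 * i + t)) ^^ (term A B 13).testBit (28 * i + t)) ^^ (term A B 14).testBit (28 * i + t)) ^^ (term A B 15).testBit (28 * i + t)) ^^ (term A B 16).testBit (28 * i + t)) ^^ (term A B 17).testBit (28 * i + t)) ^^ (term A B 18).testBit (28 * i + t)) ^^ (term A B 19).testBit (28 * i + t)) ^^ (term A B 20).testBit (28 * i + t)) ^^ (term A B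 21).testBit (28 * i + t)) ^^ (term A B 22).testBit (28 * i + t)) ^^ (term A B 23).testBit (28 * i + t)) ^^ (term A B 24).testBit (28 * i + t)) ^^ (term A B 25).testBit (28 * i + t)) ^^ (term A B 26).testBit (28 * i + t)) ^^ (term A B 27).testBit (28 * i + t)) := by
  change ((((((((((((((((((((((((((((term A B 0 ^^^ term A B 1) ^^^ term A B 2) ^^^ term A B 3) ^^^ term A B 4) ^^^ term A B 5) ^^^ term A B 6) ^^^ term A B 7) ^^^ term A B 8) ^^^ term A B 9) ^^^ term A B 10) ^^^ term A B 11) ^^^ term A B 12) ^^^ term A B 13) ^^^ term A B 14) ^^^ term A B 15) ^^^ term A B 16) ^^^ term A B 17) ^^^ term A B 18) ^^^ term A B 19) ^^^ term A B 20) ^^^ term A B 21) ^^^ term A B 22) ^^^ term A B 23) ^^^ term A B 24) ^^^ term A B 25) ^^^ term A B 26) ^^^ term A B 27)).testBit (28 * i + t) = _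
  simp only [Nat.testBit_xor]

theorem toMat_mulP (x y : ℕ) : toMat (mulP x y) = toMat x * toMat y := by
  refine Matrix.ext fun i k => ?_
  rw [Matrix.mul_apply]
  have hs : ∑ j : Fin 28, toMat x i j * toMat y j k =
      ∑ j ∈ Finset.range 28, b2z (x.testBit (28 * i.val + j)) * b2z (y.testBit (28 * j + k.val)) :=
    Fin.sum_univ_eq_sum_range
      (fun j => b2z (x.testBit (28 * i.val + j)) * b2z (y.testBit (28 * j + k.val))) 28
  rw [hs]
  change b2z ((mulP x y).testBit (28 * i.val + k.val)) = _
  rw [mulP_bit]
  simp only [term_bit x y i.val _ k.val i.isLt k.isLt, b2z_xor, b2z_and, Finset.sum_range_succ,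
    Finset.sum_range_zero, zero_add]

/-- the identity matrix, packed -/
def oneP : ℕ := 0x8000000400000020000001000000080000004000000200000010000000800000040000002000000100000008000000400000020000001000000080000004000000200000010000000800000040000002000000100000008000000400000020000001
def M784 : ℕ := 0xffffffffffffffffffffffffffffffffffffffffffffffffffffffffffffffffffffffffffffffffffffffffffffffffffffffffffffffffffffffffffffffffffffffffffffffffffffffffffffffffffffffffffffffffffffffffffffffffffff

theorem toMat_oneP : toMat oneP = 1 := by decide +kernel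

/-- reduction to the 784 significant bits -/
def canon (x : ℕ) : ℕ := Nat.land x M784

theorem canon_eq (a b : ℕ) (h : toMat a = toMat b) : canon a = canon b := by
  have hM : M784 = 2 ^ 784 - 1 := by decide +kernel
  apply Nat.eq_of_testBit_eq
  intro n
  change (a &&& M784).testBit n = (b &&& M784).testBit n
  rw [Nat.testBit_and, Nat.testBit_and, hM, Nat.testBit_two_pow_sub_one]
  by_cases hn : n < 784
  · have hi : n / 28 < 28 := by omega
    have hj : n % 28 < 28 := Nat.mod_lt _ (by norm_num)
    have h1 := congrFun (congrFun h ⟨n / 28, hi⟩) ⟨n % 28, hj⟩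
    have h2 : a.testBit (28 * (n / 28) + n % 28) = b.testBit (28 * (n / 28) + n % 28) := b2z_inj h1
    rw [Nat.div_add_mod] at h2
    rw [h2]
  · simp [hn]

open Cfsg.Agent.Lib.Helper60.Cert in
/-- the model of packed matrices -/
def model : Model Mat where
  toM := toMat
  mulP := mulP
  oneP := oneP
  key := canon
  toM_mul := toMat_mulP
  toM_one := toMat_oneP
  key_eq := canon_eq

end Cfsg.Agent.Lib.Helper60.Ru
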