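import Mathlib

/-!
The permutation representation of a finite simple group on the cosets of a subgroup `K`,
arranged so that the stabiliser of the point `0` is the image of `K`.
-/

set_option autoImplicit false

namespace Cfsg.Agent.Lib.Helper60.Ru

/-- a finite simple group with a subgroup `K` of index `n > 1` is a transitive permutation
group of degree `n` in which the stabiliser of `0` is the image of `K`; a subgroup `T` of `K`
gives an isomorphic subgroup of that stabiliser. -/
theorem exists_perm_rep' {G : Type*} [Group G] [Finite G] [IsSimpleGroup G] (K : Subgroup G)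
    (n : ℕ) [NeZero n] (hn : K.index = n) (hn1 : 1 < n) (T : Subgroup G) (hT : T ≤ K) :
    ∃ H : Subgroup (Equiv.Perm (Fin n)), Nonempty (G ≃* H) ∧
      MulAction.IsPretransitive H (Fin n) ∧
      Nat.card (MulAction.stabilizer H (0 : Fin n)) = Nat.card K ∧
      ∃ T' : Subgroup (MulAction.stabilizer H (0 : Fin n)), Nonempty (T ≃* T') := by
  classical
  have hcard : Nat.card (G ⧸ K) = n := hn
  let e0 : G ⧸ K ≃ Fin n := Finite.equivFinOfCardEq hcard
  let e : G ⧸ K ≃ Fin n := e0.trans (Equiv.swap (e0 ((1 : G) : G ⧸ K)) 0)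
  have he1 : e ((1 : G) : G ⧸ K) = 0 := by simp [e]
  let φ : G →* Equiv.Perm (G ⧸ K) := MulAction.toPermHom G (G ⧸ K)
  let ρ : G →* Equiv.Perm (Fin n) := (e.permCongrHom : _ →* _).comp φ
  have hρ : ∀ g a, ρ g a = e (g • e.symm a) := fun g a => rfl
  have hstab : ∀ g : G, ρ g 0 = 0 ↔ g ∈ K := by
    intro g
    rw [hρ, ← he1, Equiv.symm_apply_apply, e.apply_eq_iff_eq, MulAction.Quotient.smul_mk,
      smul_eq_mul, mul_one, QuotientGroup.eq]
    simp
  have hinj : Function.Injective ρ := by
    rw [← MonoidHom.ker_eq_bot_iff]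
    rcases (MonoidHom.normal_ker ρ).eq_bot_or_eq_top with h | h
    · exact h
    · exfalso
      have hK : K = ⊤ := by
        rw [eq_top_iff]
        intro g _
        have hg : g ∈ MonoidHom.ker ρ := by rw [h]; trivial
        rw [MonoidHom.mem_ker] at hg
        apply (hstab g).mp
        rw [hg]; rfl
      rw [hK, Subgroup.index_top] at hn
      omega
  let E : G ≃* ρ.range := MonoidHom.ofInjective hinj
  have hE : ∀ g : G, ((E g : ρ.range) : Equiv.Perm (Fin n)) = ρ g := fun g => rfl
  have hS : MulAction.stabilizer ρ.range (0 : Fin n) = K.map E.toMonoidHom := by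
    ext s
    rw [MulAction.mem_stabilizer_iff, Subgroup.mem_map]
    constructor
    · intro hs
      obtain ⟨g, rfl⟩ := E.surjective s
      refine ⟨g, (hstab g).mp ?_, rfl⟩
      exact hs
    · rintro ⟨g, hg, rfl⟩
      exact (hstab g).mpr hg
  refine ⟨ρ.range, ⟨E⟩, ?_, ?_, ?_⟩
  · constructor
    intro a b
    obtain ⟨g, hg⟩ := MulAction.exists_smul_eq G (e.symm a) (e.symm b)
    refine ⟨⟨ρ g, ⟨g, rfl⟩⟩, ?_⟩
    change ρ g a = b
    rw [hρ, hg, Equiv.apply_symm_apply]
  · rw [hS]
    exact (Nat.card_congr (K.equivMapOfInjective E.toMonoidHom E.injective).toEquiv).symm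
  · have hle : T.map E.toMonoidHom ≤ MulAction.stabilizer ρ.range (0 : Fin n) := by
      rw [hS]; exact Subgroup.map_mono hT
    exact ⟨(T.map E.toMonoidHom).subgroupOf (MulAction.stabilizer ρ.range (0 : Fin n)),
      ⟨(T.equivMapOfInjective E.toMonoidHom E.injective).trans
        (Subgroup.subgroupOfEquivOfLe hle).symm⟩⟩

end Cfsg.Agent.Lib.Helper60.Ru
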