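import Cfsg.Agent.Lib.Helper60.Ru.ChkK
import Cfsg.Agent.Lib.Helper60.Ru.ChkKp
import Cfsg.Agent.Lib.Helper60.Ru.ChkC0
import Cfsg.Agent.Lib.Helper60.Ru.ChkC1
import Cfsg.Agent.Lib.Helper60.Ru.ChkS2T
import Cfsg.Agent.Lib.Helper60.Ru.ChkS3
import Cfsg.Agent.Lib.Helper60.Ru.ChkS5T
import Cfsg.Agent.Lib.Helper60.Ru.ChkS2G
import Cfsg.Agent.Lib.Helper60.Ru.ChkS5G
import Cfsg.Agent.Lib.Helper60.Ru.ChkS7
import Cfsg.Agent.Lib.Helper60.Ru.ChkS29
import Cfsg.Agent.Lib.Helper60.Ru.Perm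

/-!
A group of 28 × 28 matrices over the field with two elements that is simple of order
145926144000 (the Rudvalis group), with a subgroup of index 4060 which contains a simple
subgroup of order 17971200 (the Tits group); assembled from the kernel-checked tables.
-/

set_option autoImplicit false

namespace Cfsg.Agent.Lib.Helper60.Ru

open Cfsg.Agent.Lib.Helper60.Cert

/-- the invertible matrices -/
abbrev GLm := (Matrix (Fin 28) (Fin 28) (ZMod 2))ˣ

/-- the matrix of an invertible matrix -/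
def ψR : GLm →* Mat := Units.coeHom Mat

theorem ψR_inj : Function.Injective ψR := fun _ _ h => Units.ext h

/-- a packed matrix with a power equal to one is the value of a unit -/
theorem exists_unit_of_pow {m n : ℕ} (hn : 0 < n) (h : model.powP m n = model.oneP) :
    ∃ g : GLm, ψR g = model.toM m := by
  have h1 : model.toM m ^ n = 1 := by rw [← model.toM_powP, h, model.toM_one]
  obtain ⟨k, rfl⟩ : ∃ k, n = k + 1 := ⟨n - 1, by omega⟩
  exact ⟨⟨model.toM m, model.toM m ^ k, by rw [← pow_succ', h1], by rw [← pow_succ, h1]⟩, rfl⟩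

/-- the big group -/
def G : Subgroup GLm := genGrp model ψR ggen 3
/-- the simple subgroup of the point stabiliser -/
def T : Subgroup GLm := genGrp model ψR lgen 2
/-- the point stabiliser -/
def L : Subgroup GLm := genGrp model ψR lgen 3
/-- the two-point stabiliser -/
def K : Subgroup GLm := genGrp model ψR kgen 3
/-- its subgroup of index two -/
def Kp : Subgroup GLm := genGrp model ψR kgen 2

theorem gord : ∀ l < 3, model.powP (ggen l) 13 = model.oneP ∧
    model.neq (ggen l) model.oneP = true := by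
  intro l hl
  have h := allBelow_spec _ _ ord_ok l hl
  simp only [chkOrd, Bool.and_eq_true] at h
  exact ⟨Nat.eq_of_beq_eq_true h.1, h.2⟩

theorem hexg : ∀ l < 3, ∃ g, ψR g = model.toM (ggen l) :=
  fun l hl => exists_unit_of_pow (by norm_num) (gord l hl).1

theorem ggen_real : ∀ l < 3, Real model ψR G (ggen l) := gen_real hexg

theorem lgen_real_G : ∀ l < 3, Real model ψR G (lgen l) := by
  intro l hl
  interval_cases l
  · exact (ggen_real 0 (by norm_num)).of_eq lgen0.symm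
  · exact (ggen_real 1 (by norm_num)).of_eq lgen1.symm
  · exact real_of_chkWord ggen_real uw_ok

theorem hexl : ∀ l < 3, ∃ g, ψR g = model.toM (lgen l) := by
  intro l hl
  obtain ⟨g, _, hg⟩ := lgen_real_G l hl
  exact ⟨g, hg⟩

theorem hexl2 : ∀ l < 2, ∃ g, ψR g = model.toM (lgen l) := fun l hl => hexl l (by omega)

theorem L_le_G : L ≤ G := genGrp_le ψR_inj G lgen_real_G

theorem lgen_real_T : ∀ l < 2, Real model ψR T (lgen l) := gen_real hexl2

theorem lgen_real_L : ∀ l < 3, Real model ψR L (lgen l) := gen_real hexl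

theorem T_le_L : T ≤ L := genGrp_le ψR_inj L (fun l hl => lgen_real_L l (by omega))

theorem T_le_G : T ≤ G := T_le_L.trans L_le_G

theorem kgen_real_T : ∀ l < 2, Real model ψR T (kgen l) := by
  intro l hl
  interval_cases l
  · exact real_of_chkWord lgen_real_T k1w_ok
  · exact real_of_chkWord lgen_real_T k2w_ok

theorem kgen_real_L : ∀ l < 3, Real model ψR L (kgen l) := by
  intro l hl
  interval_cases l
  · exact (kgen_real_T 0 (by norm_num)).mono T_le_L
  · exact (kgen_real_T 1 (by norm_num)).mono T_le_L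
  · exact (lgen_real_L 2 (by norm_num)).of_eq kgen2.symm

theorem hexk : ∀ l < 3, ∃ g, ψR g = model.toM (kgen l) := by
  intro l hl
  obtain ⟨g, _, hg⟩ := kgen_real_L l hl
  exact ⟨g, hg⟩

theorem hexk2 : ∀ l < 2, ∃ g, ψR g = model.toM (kgen l) := fun l hl => hexk l (by omega)

theorem K_le_L : K ≤ L := genGrp_le ψR_inj L kgen_real_L

theorem Kp_le_T : Kp ≤ T := genGrp_le ψR_inj T kgen_real_T

instance : Finite GLm := inferInstance

theorem card_K : Nat.card K = 15600 := by
  have h := card_L (D := KL) KLok ψR_inj hexk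
  exact h

theorem card_Kp : Nat.card Kp = 7800 := by
  have h := card_L (D := KpL) KpLok ψR_inj hexk2
  exact h

theorem KT_real_K : ∀ j < 15600, Real model ψR K (KT j) := L_sup KLok hexk

theorem KT_real_Kp : ∀ j < 7800, Real model ψR Kp (KT j) := L_sup KpLok hexk2

theorem DT_real_L : ∀ j < 2304, Real model ψR L (DT j) := C_sup C1ok hexl

theorem DT_real_T : ∀ j < 2304, Real model ψR T (DT j) := C_sup C1pok hexl2

theorem CT_real_G : ∀ i < 4060, Real model ψR G (CT i) := C_sup C0ok hexg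

theorem card_L_le : Nat.card L ≤ 2304 * 15600 := by
  have hw : ∀ l < 3, ∀ i < 2304, Real model ψR K (KT (b1 l i)) := by
    intro l hl i hi
    have h := allBelow_spec _ _ (C1ok_b i hi) l hl
    exact KT_real_K _ (by simpa using h)
  have h := card_C_le C1ok ψR_inj K hw
  rw [card_K] at h
  exact h

theorem card_T_le : Nat.card T ≤ 2304 * 7800 := by
  have hw : ∀ l < 2, ∀ i < 2304, Real model ψR Kp (KT (b1 l i)) := by
    intro l hl i hi
    have h := allBelow_spec _ _ (C1pok_b i hi) l hl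
    exact KT_real_Kp _ (by simpa using h)
  have h := card_C_le C1pok ψR_inj Kp hw
  rw [card_Kp] at h
  exact h

theorem card_G_le : Nat.card G ≤ 4060 * Nat.card L := by
  have hw : ∀ l < 3, ∀ i < 4060, Real model ψR L (mulP (DT (a0 l i)) (KT (b0 l i))) := by
    intro l hl i hi
    have h := allBelow_spec _ _ (C0ok_b i hi) l hl
    simp only [Bool.and_eq_true, Nat.blt_eq] at h
    exact (DT_real_L _ h.1).mul ((KT_real_K _ h.2).mono K_le_L)
  exact card_C_le C0ok ψR_inj L hw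

theorem real_G_of_tri {tgt i j k : ℕ} (h : chkTri tgt i j k = true) : Real model ψR G tgt := by
  simp only [chkTri, Bool.and_eq_true, Nat.blt_eq] at h
  obtain ⟨⟨⟨hi, hj⟩, hk⟩, he⟩ := h
  have h1 : Real model ψR G (mulP (CT i) (mulP (DT j) (KT k))) :=
    (CT_real_G i hi).mul (((DT_real_L j hj).mul ((KT_real_K k hk).mono K_le_L)).mono L_le_G)
  exact h1.of_eq (Nat.eq_of_beq_eq_true he).symm

theorem real_T_of_pair {tgt j k : ℕ} (h : chkPair tgt j k = true) : Real model ψR T tgt := by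
  simp only [chkPair, Bool.and_eq_true, Nat.blt_eq] at h
  obtain ⟨⟨hj, hk⟩, he⟩ := h
  have h1 : Real model ψR T (mulP (DT j) (KT k)) :=
    (DT_real_T j hj).mul ((KT_real_Kp k hk).mono Kp_le_T)
  exact h1.of_eq (Nat.eq_of_beq_eq_true he).symm

/-! ### generators and conjugators of the Sylow data -/

theorem s2T_hgen : ∀ l < s2TD.L.r, Real model ψR T (s2TD.L.gen l) :=
  fun l hl => real_T_of_pair (allBelow_spec _ _ s2T_gc l hl)
theorem s2T_hW : ∀ c < s2TD.nW, Real model ψR T (s2TD.W c) :=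
  fun c hc => real_T_of_pair (allBelow_spec _ _ s2T_wc c hc)
theorem s3_hgen : ∀ l < s3D.L.r, Real model ψR T (s3D.L.gen l) :=
  fun l hl => real_T_of_pair (allBelow_spec _ _ s3_gc l hl)
theorem s3_hW : ∀ c < s3D.nW, Real model ψR T (s3D.W c) :=
  fun c hc => real_T_of_pair (allBelow_spec _ _ s3_wc c hc)
theorem s5T_hgen : ∀ l < s5TD.L.r, Real model ψR T (s5TD.L.gen l) :=
  fun l hl => real_T_of_pair (allBelow_spec _ _ s5T_gc l hl)
theorem s5T_hW : ∀ c < s5TD.nW, Real model ψR T (s5TD.W c) :=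
  fun c hc => real_T_of_pair (allBelow_spec _ _ s5T_wc c hc)
theorem s2G_hgen : ∀ l < s2GD.L.r, Real model ψR G (s2GD.L.gen l) :=
  fun l hl => real_G_of_tri (allBelow_spec _ _ s2G_gc l hl)
theorem s2G_hW : ∀ c < s2GD.nW, Real model ψR G (s2GD.W c) :=
  fun c hc => real_G_of_tri (allBelow_spec _ _ s2G_wc c hc)
theorem s5G_hgen : ∀ l < s5GD.L.r, Real model ψR G (s5GD.L.gen l) :=
  fun l hl => real_G_of_tri (allBelow_spec _ _ s5G_gc l hl)
theorem s5G_hW : ∀ c < s5GD.nW, Real model ψR G (s5GD.W c) :=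
  fun c hc => real_G_of_tri (allBelow_spec _ _ s5G_wc c hc)
theorem s7_hgen : ∀ l < s7D.L.r, Real model ψR G (s7D.L.gen l) :=
  fun l hl => real_G_of_tri (allBelow_spec _ _ s7_gc l hl)
theorem s7_hW : ∀ c < s7D.nW, Real model ψR G (s7D.W c) :=
  fun c hc => real_G_of_tri (allBelow_spec _ _ s7_wc c hc)
theorem s29_hgen : ∀ l < s29D.L.r, Real model ψR G (s29D.L.gen l) :=
  fun l hl => real_G_of_tri (allBelow_spec _ _ s29_gc l hl)
theorem s29_hW : ∀ c < s29D.nW, Real model ψR G (s29D.W c) :=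
  fun c hc => real_G_of_tri (allBelow_spec _ _ s29_wc c hc)

/-! ### the orders -/

theorem thirteen_dvd_T : 13 ∣ Nat.card T := by
  haveI : Fact (Nat.Prime 13) := ⟨by norm_num⟩
  obtain ⟨g, hgT, hg⟩ := lgen_real_T 0 (by norm_num)
  have h0 := gord 0 (by norm_num)
  rw [← lgen0] at h0
  have h1 : orderOf g = 13 := orderOf_eq_prime_of ψR_inj hg h0.1 h0.2
  have := orderOf_dvd_natCard (⟨g, hgT⟩ : T)
  rwa [← Subgroup.orderOf_coe, h1] at this

theorem card_eq_T (n : ℕ) (hpos : 0 < n) (d2 : 2048 ∣ n) (d3 : 27 ∣ n) (d5 : 25 ∣ n)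
    (d13 : 13 ∣ n) (hle : n ≤ 17971200) : n = 17971200 := by
  have e1 : 2048 * 27 ∣ n := Nat.Coprime.mul_dvd_of_dvd_of_dvd (by norm_num) d2 d3
  have e2 : 2048 * 27 * 25 ∣ n := Nat.Coprime.mul_dvd_of_dvd_of_dvd (by norm_num) e1 d5
  have e3 : 2048 * 27 * 25 * 13 ∣ n := Nat.Coprime.mul_dvd_of_dvd_of_dvd (by norm_num) e2 d13
  obtain ⟨k, rfl⟩ := e3
  have : k = 1 := by omega
  subst this; rfl

theorem card_eq_G (n : ℕ) (hpos : 0 < n) (d2 : 16384 ∣ n) (d3 : 27 ∣ n) (d5 : 125 ∣ n)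
    (d7 : 7 ∣ n) (d13 : 13 ∣ n) (d29 : 29 ∣ n) (hle : n ≤ 145926144000) :
    n = 145926144000 := by
  have e1 : 16384 * 27 ∣ n := Nat.Coprime.mul_dvd_of_dvd_of_dvd (by norm_num) d2 d3
  have e2 : 16384 * 27 * 125 ∣ n := Nat.Coprime.mul_dvd_of_dvd_of_dvd (by norm_num) e1 d5
  have e3 : 16384 * 27 * 125 * 7 ∣ n := Nat.Coprime.mul_dvd_of_dvd_of_dvd (by norm_num) e2 d7
  have e4 : 16384 * 27 * 125 * 7 * 13 ∣ n :=
    Nat.Coprime.mul_dvd_of_dvd_of_dvd (by norm_num) e3 d13
  have e5 : 16384 * 27 * 125 * 7 * 13 * 29 ∣ n :=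
    Nat.Coprime.mul_dvd_of_dvd_of_dvd (by norm_num) e4 d29
  obtain ⟨k, rfl⟩ := e5
  have : k = 1 := by omega
  subst this; rfl

theorem arith1 (a b : ℕ) (h1 : a ≤ 4060 * b) (h2 : b ≤ 2304 * 15600) : a ≤ 145926144000 := by
  omega

theorem arith2 (b : ℕ) (h1 : 145926144000 ≤ 4060 * b) (h2 : b ≤ 2304 * 15600) : b = 35942400 := by
  omega

theorem arith3 (x : ℕ) (h : x * 35942400 = 145926144000) : x = 4060 := by omega

theorem card_T : Nat.card T = 17971200 := by
  have d2 : 2048 ∣ Nat.card T := card_dvd_of_lok ψR_inj T s2Tok.l s2T_hgen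
  have d3 : 27 ∣ Nat.card T := card_dvd_of_lok ψR_inj T s3ok.l s3_hgen
  have d5 : 25 ∣ Nat.card T := card_dvd_of_lok ψR_inj T s5Tok.l s5T_hgen
  exact card_eq_T _ Nat.card_pos d2 d3 d5 thirteen_dvd_T card_T_le

theorem card_G : Nat.card G = 145926144000 := by
  have d2 : 16384 ∣ Nat.card G := card_dvd_of_lok ψR_inj G s2Gok.l s2G_hgen
  have d3 : 27 ∣ Nat.card G :=
    card_dvd_of_lok ψR_inj G s3ok.l (fun l hl => (s3_hgen l hl).mono T_le_G)
  have d5 : 125 ∣ Nat.card G := card_dvd_of_lok ψR_inj G s5Gok.l s5G_hgen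
  have d7 : 7 ∣ Nat.card G := card_dvd_of_lok ψR_inj G s7ok.l s7_hgen
  have d29 : 29 ∣ Nat.card G := card_dvd_of_lok ψR_inj G s29ok.l s29_hgen
  have d13 : 13 ∣ Nat.card G :=
    dvd_trans thirteen_dvd_T (Subgroup.card_dvd_of_le T_le_G)
  have hle : Nat.card G ≤ 145926144000 := arith1 _ _ card_G_le card_L_le
  exact card_eq_G _ Nat.card_pos d2 d3 d5 d7 d13 d29 hle

theorem card_L : Nat.card L = 35942400 := by
  have h1 := card_G_le
  rw [card_G] at h1
  exact arith2 _ h1 card_L_le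

/-! ### simplicity -/

theorem prime_cases_T {p : ℕ} (hp : p.Prime) (h : p ∣ 17971200) :
    p = 2 ∨ p = 3 ∨ p = 5 ∨ p = 13 := by
  have e : (17971200 : ℕ) = 2 ^ 11 * (3 ^ 3 * (5 ^ 2 * 13)) := by norm_num
  rw [e] at h
  rcases (Nat.Prime.dvd_mul hp).mp h with h | h
  · left; exact (Nat.prime_dvd_prime_iff_eq hp (by norm_num)).mp (hp.dvd_of_dvd_pow h)
  rcases (Nat.Prime.dvd_mul hp).mp h with h | h
  · right; left; exact (Nat.prime_dvd_prime_iff_eq hp (by norm_num)).mp (hp.dvd_of_dvd_pow h)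
  rcases (Nat.Prime.dvd_mul hp).mp h with h | h
  · right; right; left
    exact (Nat.prime_dvd_prime_iff_eq hp (by norm_num)).mp (hp.dvd_of_dvd_pow h)
  · right; right; right; exact (Nat.prime_dvd_prime_iff_eq hp (by norm_num)).mp h

theorem prime_cases_G {p : ℕ} (hp : p.Prime) (h : p ∣ 145926144000) :
    p = 2 ∨ p = 3 ∨ p = 5 ∨ p = 7 ∨ p = 13 ∨ p = 29 := by
  have e : (145926144000 : ℕ) = 2 ^ 14 * (3 ^ 3 * (5 ^ 3 * (7 * (13 * 29)))) := by norm_num
  rw [e] at h
  rcases (Nat.Prime.dvd_mul hp).mp h with h | h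
  · left; exact (Nat.prime_dvd_prime_iff_eq hp (by norm_num)).mp (hp.dvd_of_dvd_pow h)
  rcases (Nat.Prime.dvd_mul hp).mp h with h | h
  · right; left; exact (Nat.prime_dvd_prime_iff_eq hp (by norm_num)).mp (hp.dvd_of_dvd_pow h)
  rcases (Nat.Prime.dvd_mul hp).mp h with h | h
  · right; right; left
    exact (Nat.prime_dvd_prime_iff_eq hp (by norm_num)).mp (hp.dvd_of_dvd_pow h)
  rcases (Nat.Prime.dvd_mul hp).mp h with h | h
  · right; right; right; left; exact (Nat.prime_dvd_prime_iff_eq hp (by norm_num)).mp h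
  rcases (Nat.Prime.dvd_mul hp).mp h with h | h
  · right; right; right; right; left; exact (Nat.prime_dvd_prime_iff_eq hp (by norm_num)).mp h
  · right; right; right; right; right; exact (Nat.prime_dvd_prime_iff_eq hp (by norm_num)).mp h

theorem T_simple : IsSimpleGroup T := by
  have hc := card_T
  haveI : Fact (Nat.Prime 13) := ⟨by norm_num⟩
  refine simple_of_certs ψR_inj T 13 (by rw [hc]; norm_num) (by rw [hc]; norm_num)
    lgen 2 lgen_real_T ?_ le_rfl ?_
  · intro l hl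
    interval_cases l
    · rw [lgen0]; exact gord 0 (by norm_num)
    · rw [lgen1]; exact gord 1 (by norm_num)
  · intro p hp hpd hp13
    rw [hc] at hpd
    rcases prime_cases_T hp hpd with rfl | rfl | rfl | rfl
    · haveI : Fact (Nat.Prime 2) := ⟨hp⟩
      exact syl_cert3 ψR_inj T s2Tok s2T_hgen s2T_hW (by norm_num [s2TD]) 2 11 rfl
        (by rw [hc]; decide)
    · haveI : Fact (Nat.Prime 3) := ⟨hp⟩
      exact syl_cert ψR_inj T s3ok s3_hgen s3_hW (by norm_num [s3D]) 3 3 rfl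
        (by rw [hc]; decide)
    · haveI : Fact (Nat.Prime 5) := ⟨hp⟩
      exact syl_cert ψR_inj T s5Tok s5T_hgen s5T_hW (by norm_num [s5TD]) 5 2 rfl
        (by rw [hc]; decide)
    · exact absurd rfl hp13

theorem G_simple : IsSimpleGroup G := by
  have hc := card_G
  haveI : Fact (Nat.Prime 13) := ⟨by norm_num⟩
  refine simple_of_certs ψR_inj G 13 (by rw [hc]; norm_num) (by rw [hc]; norm_num)
    ggen 3 ggen_real gord le_rfl ?_
  intro p hp hpd hp13
  rw [hc] at hpd
  rcases prime_cases_G hp hpd with rfl | rfl | rfl | rfl | rfl | rfl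
  · haveI : Fact (Nat.Prime 2) := ⟨hp⟩
    exact syl_cert ψR_inj G s2Gok s2G_hgen s2G_hW (by norm_num [s2GD]) 2 14 rfl
      (by rw [hc]; decide)
  · haveI : Fact (Nat.Prime 3) := ⟨hp⟩
    exact syl_cert ψR_inj G s3ok (fun l hl => (s3_hgen l hl).mono T_le_G)
      (fun c hc => (s3_hW c hc).mono T_le_G) (by norm_num [s3D]) 3 3 rfl (by rw [hc]; decide)
  · haveI : Fact (Nat.Prime 5) := ⟨hp⟩
    exact syl_cert ψR_inj G s5Gok s5G_hgen s5G_hW (by norm_num [s5GD]) 5 3 rfl
      (by rw [hc]; decide)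
  · haveI : Fact (Nat.Prime 7) := ⟨hp⟩
    exact syl_cert ψR_inj G s7ok s7_hgen s7_hW (by norm_num [s7D]) 7 1 rfl
      (by rw [hc]; decide)
  · exact absurd rfl hp13
  · haveI : Fact (Nat.Prime 29) := ⟨hp⟩
    exact syl_cert ψR_inj G s29ok s29_hgen s29_hW (by norm_num [s29D]) 29 1 rfl
      (by rw [hc]; decide)

theorem simple_of_equiv {A B : Type*} [Group A] [Group B] (h : IsSimpleGroup A) (e : A ≃* B) :
    IsSimpleGroup B := e.symm.isSimpleGroup

theorem card_LG : Nat.card (L.subgroupOf G) = 35942400 :=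
  (Nat.card_congr (Subgroup.subgroupOfEquivOfLe L_le_G).toEquiv).trans card_L

theorem idx_LG : (L.subgroupOf G).index = 4060 := by
  have h1 := (L.subgroupOf G).index_mul_card
  have h2 : (L.subgroupOf G).index * 35942400 = 145926144000 :=
    (congrArg (fun t => (L.subgroupOf G).index * t) card_LG).symm.trans (h1.trans card_G)
  exact arith3 _ h2

theorem TL_sub : T.subgroupOf G ≤ L.subgroupOf G := by
  intro x hx
  exact Subgroup.mem_subgroupOf.mpr (T_le_L (Subgroup.mem_subgroupOf.mp hx))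

theorem perm_aux : ∃ H : Subgroup (Equiv.Perm (Fin 4060)), Nonempty (G ≃* H) ∧
    MulAction.IsPretransitive H (Fin 4060) ∧
    Nat.card (MulAction.stabilizer H (0 : Fin 4060)) = Nat.card (L.subgroupOf G) ∧
    ∃ T' : Subgroup (MulAction.stabilizer H (0 : Fin 4060)), Nonempty (T.subgroupOf G ≃* T') := by
  haveI := G_simple
  exact exists_perm_rep' (L.subgroupOf G) 4060 idx_LG (by norm_num) (T.subgroupOf G) TL_sub

/-- the Rudvalis group as a permutation group of degree 4060 -/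
theorem ru_perm : ∃ H : Subgroup (Equiv.Perm (Fin 4060)),
    (IsSimpleGroup H ∧ Nat.card H = 145926144000) ∧ MulAction.IsPretransitive H (Fin 4060) ∧
    Nat.card (MulAction.stabilizer H (0 : Fin 4060)) = 35942400 ∧
    ∃ T' : Subgroup (MulAction.stabilizer H (0 : Fin 4060)),
      IsSimpleGroup T' ∧ Nat.card T' = 17971200 := by
  obtain ⟨H, ⟨E⟩, htr, hst, T', ⟨ET⟩⟩ := perm_aux
  have ET' : T ≃* T' := (Subgroup.subgroupOfEquivOfLe T_le_G).symm.trans ET
  have hH : IsSimpleGroup H := simple_of_equiv G_simple E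
  have hT' : IsSimpleGroup T' := simple_of_equiv T_simple ET'
  refine ⟨H, ⟨hH, ?_⟩, htr, ?_, T', hT', ?_⟩
  · exact (Nat.card_congr E.toEquiv).symm.trans card_G
  · exact hst.trans card_LG
  · exact (Nat.card_congr ET'.toEquiv).symm.trans card_T

end Cfsg.Agent.Lib.Helper60.Ru
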